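import Cfsg.Agent.Lib.Helper4.FXSP.Defs
import Cfsg.Agent.Lib.Helper13.SpPrim
import Cfsg.Agent.Lib.Helper40.SpSylow

set_option autoImplicit false

/-!
# [EX] for project FXSP (S5975): an element of prime order `r` of `Sp_{2d}(q)` supported on a
`2n`-dimensional block, when `r ∣ q^(2n) - 1`

Cauchy in `Sp_{2n}(q)` (order from `Helper40.card_symplecticGroup`), padded by an identity block
(`Helper40.padSp`) and reindexed (`Helper45.reindexSp`).
-/

namespace Cfsg.Agent.Lib.Helper85.FXSP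

open Cfsg.Agent.Lib.Helper4.FXSP

universe u

/-- the rank of a block matrix with only one non-zero block. -/
theorem rank_fromBlocks_zero_le {F : Type u} [Field F] {α β : Type} [Fintype α] [Fintype β]
    [DecidableEq α] [DecidableEq β] (B : Matrix α α F) :
    (Matrix.fromBlocks B 0 0 (0 : Matrix β β F)).rank ≤ Fintype.card α := by
  have e4 : Matrix.fromBlocks B 0 0 (0 : Matrix β β F) =
      Matrix.fromRows B (0 : Matrix β α F) *
        Matrix.fromCols (1 : Matrix α α F) (0 : Matrix α β F) := by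
    rw [Matrix.fromRows_mul_fromCols]
    simp
  rw [e4]
  exact (Matrix.rank_mul_le_left _ _).trans (Matrix.rank_le_card_width _)

/-- [EX] -/
theorem pkgEx : PkgEx.{u} := by
  intro F _ _ d n r hr hn hnd hdiv
  classical
  haveI : Fact r.Prime := ⟨hr⟩
  have hcard := Cfsg.Agent.Lib.Helper40.card_symplecticGroup (F := F) n
  have hrdvd : r ∣ Nat.card ↥(Matrix.symplecticGroup (Fin n) F) := by
    rw [hcard]
    apply Dvd.dvd.mul_left
    have hmem : (n - 1) ∈ Finset.range n := Finset.mem_range.mpr (by omega)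
    refine dvd_trans ?_ (Finset.dvd_prod_of_mem _ hmem)
    have e : 2 * (n - 1 + 1) = 2 * n := by omega
    rw [e]
    exact hdiv
  obtain ⟨A, hA⟩ := exists_prime_orderOf_dvd_card' r hrdvd
  obtain ⟨ε⟩ : Nonempty (Fin d ≃ Fin n ⊕ Fin (d - n)) :=
    ⟨(finSumFinEquiv.trans (finCongr (by omega))).symm⟩
  obtain ⟨x₀, hx₀⟩ : ∃ x₀ : ↥(Matrix.symplecticGroup (Fin d) F),
      x₀ = Cfsg.Agent.Lib.Helper45.reindexSp (R := F) ε
        (Cfsg.Agent.Lib.Helper40.padSp (β := Fin (d - n)) A) := ⟨_, rfl⟩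
  have hx₀r : x₀ ^ r = 1 := by
    rw [hx₀, ← map_pow, ← map_pow, ← hA, pow_orderOf_eq_one, map_one, map_one]
  have hx₀1 : x₀ ≠ 1 := by
    intro h
    have h1 : Cfsg.Agent.Lib.Helper40.padSp (β := Fin (d - n)) A = 1 :=
      (Cfsg.Agent.Lib.Helper45.reindexSp_injective (R := F) ε) (by rw [← hx₀, h, map_one])
    have h2 : A = 1 := Cfsg.Agent.Lib.Helper40.padSp_injective (by rw [h1, map_one])
    rw [h2, orderOf_one] at hA
    exact hr.one_lt.ne hA
  refine ⟨(Cfsg.Agent.Lib.Helper13.spToSpGL x₀).1, (Cfsg.Agent.Lib.Helper13.spToSpGL x₀).2,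
    ?_, ?_, ?_⟩
  · apply Units.ext
    rw [Units.val_pow_eq_pow_val]
    show x₀.1 ^ r = 1
    have h := congrArg Subtype.val hx₀r
    rw [SubmonoidClass.coe_pow] at h
    exact h
  · intro h
    apply hx₀1
    apply Subtype.ext
    have h' := congrArg (fun g : Matrix.GeneralLinearGroup (Fin d ⊕ Fin d) F =>
      (g : Matrix (Fin d ⊕ Fin d) (Fin d ⊕ Fin d) F)) h
    exact h'
  · show (x₀.1 - 1).rank ≤ 2 * n
    obtain ⟨T, hT⟩ : ∃ T : Fin d ⊕ Fin d ≃ (Fin n ⊕ Fin n) ⊕ (Fin (d - n) ⊕ Fin (d - n)),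
        T = (Equiv.sumCongr ε ε).trans
          (Equiv.sumSumSumComm (Fin n) (Fin (d - n)) (Fin n) (Fin (d - n))) := ⟨_, rfl⟩
    have e1 : x₀.1 = (Matrix.fromBlocks A.1 0 0
        (1 : Matrix (Fin (d - n) ⊕ Fin (d - n)) (Fin (d - n) ⊕ Fin (d - n)) F)).submatrix T T := by
      rw [hx₀, hT]
      rfl
    have e2 : x₀.1 - 1 = (Matrix.fromBlocks A.1 0 0
        (1 : Matrix (Fin (d - n) ⊕ Fin (d - n)) (Fin (d - n) ⊕ Fin (d - n)) F) - 1).submatrix
          T T := by
      rw [e1]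
      ext i j
      simp only [Matrix.sub_apply, Matrix.submatrix_apply, Matrix.one_apply, T.injective.eq_iff]
    have e3 : Matrix.fromBlocks A.1 0 0
        (1 : Matrix (Fin (d - n) ⊕ Fin (d - n)) (Fin (d - n) ⊕ Fin (d - n)) F) - 1 =
        Matrix.fromBlocks (A.1 - 1) 0 0 0 := by
      ext (i | i) (j | j) <;> simp [Matrix.one_apply]
    rw [e2, e3, Matrix.rank_submatrix]
    refine (rank_fromBlocks_zero_le _).trans ?_
    rw [Fintype.card_sum, Fintype.card_fin]
    omega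

end Cfsg.Agent.Lib.Helper85.FXSP
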