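import Cfsg.Agent.Lib.Helper4.FXSP.Defs
import Cfsg.Agent.Lib.Helper13.SpPrim
import Cfsg.Agent.Lib.Helper40.SympOrder

set_option autoImplicit false

/-!
# [SPCARD] for project FXSP (S5975): the order of `spGL d F`
-/

namespace Cfsg.Agent.Lib.Helper85.FXSP

open Cfsg.Agent.Lib.Helper4.FXSP

universe u

/-- `spToSpGL` is a bijection from Mathlib's symplectic group onto `Cfsg.spGL`. -/
theorem spToSpGL_bijective {F : Type u} [Field F] (d : ℕ) :
    Function.Bijective (Cfsg.Agent.Lib.Helper13.spToSpGL :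
      ↥(Matrix.symplecticGroup (Fin d) F) → ↥(Cfsg.spGL d F)) := by
  constructor
  · intro A B h
    apply Subtype.ext
    have h' := congrArg (fun g : ↥(Cfsg.spGL d F) =>
      ((g.1 : Matrix.GeneralLinearGroup (Fin d ⊕ Fin d) F) :
        Matrix (Fin d ⊕ Fin d) (Fin d ⊕ Fin d) F)) h
    exact h'
  · intro g
    refine ⟨⟨((g.1 : Matrix.GeneralLinearGroup (Fin d ⊕ Fin d) F) :
        Matrix (Fin d ⊕ Fin d) (Fin d ⊕ Fin d) F),
      Cfsg.Agent.Lib.Helper13.mem_symplecticGroup_of_sympForm d g.2⟩, ?_⟩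
    apply Subtype.ext
    apply Units.ext
    rfl

/-- the order of `Cfsg.spGL d F`. -/
theorem card_spGL {F : Type u} [Field F] [Fintype F] (d : ℕ) :
    Nat.card ↥(Cfsg.spGL d F) = Fintype.card F ^ (d ^ 2) *
      ∏ i ∈ Finset.range d, (Fintype.card F ^ (2 * (i + 1)) - 1) := by
  rw [← Cfsg.Agent.Lib.Helper40.card_symplecticGroup (F := F) d]
  exact (Nat.card_congr (Equiv.ofBijective _ (spToSpGL_bijective d))).symm

/-- [SPCARD] -/
theorem pkgSpCard : PkgSpCard.{u} := by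
  intro F _ _ d
  rw [card_spGL]
  rfl

end Cfsg.Agent.Lib.Helper85.FXSP
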